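import Cfsg.Agent.H781.RowFiA
import Cfsg.Agent.Mrg.Omega.Lie.Cen.Fi22

/-!
# S5161: Sylow 2-subgroups of `Fi22` are self-normalising (helper781)
-/

set_option autoImplicit false

namespace Cfsg.Agent.H781.RowFi

open Subgroup Cfsg Cfsg.Agent.H747 Cfsg.Agent.QTNorm Cfsg.Agent.H799.RowsTwoB

/-- a quotient by a 2-group of a subgroup of odd index -/
theorem selfN_of_quot {G : Type*} [Group G] [Finite G] {L : Type*} [Group L] (C : Subgroup G)
    (ho : ¬ 2 ∣ C.index) (π : C →* L) (hs : Function.Surjective π) (hk : ∀ c, π c = 1 → c * c = 1)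
    (h : SelfN G) : SelfN L := by
  have hf : Fact (Nat.Prime 2) := ⟨Nat.prime_two⟩
  have : Finite L := Finite.of_surjective π hs
  obtain ⟨S, hS⟩ := Cfsg.Agent.KFacts.FiTTh.Uniq.Loc.exists_sylow ho
  set S' : Sylow 2 C := S.subtype hS with hS'
  have hmem : ∀ c : C, c ∈ (S' : Subgroup C) ↔ (c : G) ∈ (S : Subgroup G) := by
    intro c
    rw [hS', Sylow.coe_subtype, mem_subgroupOf]
  have hker : π.ker ≤ (S' : Subgroup C) := by
    have h1 : IsPGroup 2 π.ker := by
      intro ⟨c, hc⟩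
      exact ⟨1, Subtype.ext (by rw [pow_one, pow_two]; exact hk c hc)⟩
    have h2 : IsPGroup 2 ((S' : Subgroup C) ⊔ π.ker : Subgroup C) :=
      S'.isPGroup'.to_sup_of_normal_right h1
    exact le_sup_right.trans (S'.is_maximal' h2 le_sup_left).le
  have hpre : ∀ c : C, π c ∈ (S' : Subgroup C).map π ↔ c ∈ (S' : Subgroup C) := by
    intro c
    constructor
    · rintro ⟨t, ht, hte⟩
      have h3 : t⁻¹ * c ∈ π.ker := by
        rw [MonoidHom.mem_ker, map_mul, map_inv, hte, inv_mul_cancel]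
      have h4 := (S' : Subgroup C).mul_mem ht (hker h3)
      rwa [mul_inv_cancel_left] at h4
    · exact fun hc => ⟨c, hc, rfl⟩
  refine SelfN.of_one (S'.mapSurjective hs) ?_
  rw [Sylow.coe_mapSurjective]
  intro x hx
  obtain ⟨c, rfl⟩ := hs x
  rw [hpre]
  rw [hmem]
  apply h S
  rw [mem_normalizer_iff]
  intro y
  constructor
  · intro hy
    have h1 : (⟨y, hS hy⟩ : C) ∈ (S' : Subgroup C) := (hmem _).2 hy
    have h2 := (mem_normalizer_iff.1 hx _).1 ((hpre _).2 h1)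
    rw [← map_inv, ← map_mul, ← map_mul, hpre, hmem] at h2
    exact h2
  · intro hy
    have hyC : y ∈ C := by
      have h1 := C.mul_mem (C.mul_mem (C.inv_mem c.2) (hS hy)) c.2
      have h2 : (c : G)⁻¹ * (c * y * (c : G)⁻¹) * c = y := by group
      rwa [h2] at h1
    have h1 : c * ⟨y, hyC⟩ * c⁻¹ ∈ (S' : Subgroup C) := (hmem _).2 hy
    have h2 := (hpre _).2 h1
    rw [map_mul, map_mul, map_inv] at h2
    have h3 := (mem_normalizer_iff.1 hx _).2 h2
    exact (hmem _).1 ((hpre _).1 h3)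

open Cfsg.Agent.Omega.Lie.Cen Cfsg.Agent.KFacts.FiTTh Cfsg.Agent.KFacts.FiTTh.Cent Cfsg.Agent.Fischer
  Cfsg.Agent.Fischer.Fi23Hom Cfsg.Agent.Fischer.Fi23Class Cfsg.Agent.Fischer.Fi23Z in
theorem selfN_Fi22 : SelfN Spor.Fi22 := by
  have := BasInv.finite
  obtain ⟨-, ⟨e⟩, -⟩ := Quasi.cover
  refine selfN_of_quot _ index_K (e.toMonoidHom.comp (QuotientGroup.mk' (center K)))
    (e.surjective.comp (QuotientGroup.mk'_surjective _)) ?_ selfN_Fi23
  intro k hk
  have h1 : (QuotientGroup.mk' (center K)) k = 1 := e.injective (hk.trans (map_one e).symm)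
  have h2 : k ∈ center K := (QuotientGroup.eq_one_iff k).1 h1
  have h3 := Quasi.cen (k : Spor.Fi23) fun y hy =>
    (congrArg Subtype.val (mem_center_iff.1 h2 ⟨y, (mem_K_iff y).2 hy⟩)).symm
  have h4 : (k : Spor.Fi23) * k = 1 := by
    rcases h3 with h3 | h3
    · rw [h3, one_mul]
    · rw [h3]
      exact Cfsg.Agent.KFacts.FiTTh.Cent.zz
  exact Subtype.ext h4

theorem row_fi22 {K : Type*} [Group K] (h : Spor.IsoFi22 K) : RowTwo K := by
  obtain ⟨e⟩ := h
  exact RowTwo.congr e.symm (row_of_selfN selfN_Fi22)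

end Cfsg.Agent.H781.RowFi
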