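import Cfsg.Agent.H781.RowFiB
import Cfsg.Agent.H781.RowCases
import Cfsg.Agent.Foote.Row.HN

/-!
# S5161: the rows `Fi22`, `Fi23`, `Fi24'`, `HN` (helper781)
-/

set_option autoImplicit false

namespace Cfsg.Agent.H781.RowFi

open Subgroup Cfsg Cfsg.Agent.H747

open Cfsg.Agent.KFacts.HN Cfsg.Agent.HN Cfsg.Agent.HN.XStruct Cfsg.Agent.HN.XWords Cfsg.Agent.HN.XQuot in
theorem rowTwo_HN : RowTwo Spor.HN := by
  have := finite_HN
  have hf : Fact (Nat.Prime 2) := ⟨Nat.prime_two⟩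
  have hs := sheetE
  obtain ⟨T, hzT, hTz, hZ⟩ := hs.syl
  have hRn : PP ≤ normalizer (RS : Set Spor.HN) := by
    intro x hx
    rw [mem_normalizer_iff]
    intro r
    refine ⟨fun hr => conj_RS hx hr, fun h => ?_⟩
    have h1 := conj_RS (PP.inv_mem hx) h
    have e : x⁻¹ * (x * r * x⁻¹) * x⁻¹⁻¹ = r := by group
    rwa [e] at h1
  have hTP : (T : Subgroup Spor.HN) ≤ PP := fun x hx => mem_PP.2 (hTz x hx)
  have hRT : RS ≤ (T : Subgroup Spor.HN) := by
    have h1 : IsPGroup 2 (RS ⊔ (T : Subgroup Spor.HN) : Subgroup Spor.HN) :=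
      hs.R2.to_sup_of_normal_left' T.2 (hTP.trans hRn)
    have h3 := T.3 h1 le_sup_right
    rw [← h3]; exact le_sup_left
  have hcard : 2 ^ 14 ∣ Nat.card (T : Subgroup Spor.HN) := by
    have h7 : 2 ^ 14 ∣ Nat.card Spor.HN := by
      have h8 : Nat.card PP ∣ Nat.card Spor.HN := card_subgroup_dvd_card PP
      rw [card_PP] at h8
      exact (by norm_num : 2 ^ 14 ∣ 3686400).trans h8
    exact T.pow_dvd_card_of_pow_dvd_card h7
  have hTM : ¬ (T : Subgroup Spor.HN) ≤ MM := by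
    intro h
    have h1 := hcard.trans (card_dvd_of_le h)
    rw [card_MM] at h1
    norm_num at h1
  refine row_of_cases (M := MM) T hzT hTz hZ hs.z1 (fun x hx => mem_PP.2 hx) hRn hRT ?_
    (fun N hN hn => normal_cases hN hn) (fun h => hTM (h.trans RS_le_MM)) ?_
  · rintro x ⟨-, hx⟩
    rcases cent_RS (x := x) (fun y hy => (mem_centralizer_iff.1 hx y hy).symm) with h1 | h1
    · rw [h1]; exact one_mem _
    · rw [h1]; exact hs.zR
  · have h1 : MM.relIndex ((T : Subgroup Spor.HN) ⊔ MM) * ((T : Subgroup Spor.HN) ⊔ MM).relIndex PP = 2 := by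
      rw [relIndex_mul_relIndex MM _ PP le_sup_right (sup_le hTP MM_le_PP), relIndex_MM]
    have h2 : MM.relIndex ((T : Subgroup Spor.HN) ⊔ MM) ≠ 1 := fun h => hTM (le_sup_left.trans (relIndex_eq_one.1 h))
    have h3 : ((T : Subgroup Spor.HN) ⊔ MM).relIndex PP ∣ 2 := ⟨_, by rw [mul_comm]; exact h1.symm⟩
    rcases (Nat.dvd_prime Nat.prime_two).1 h3 with h4 | h4
    · exact relIndex_eq_one.1 h4
    · exfalso
      rw [h4] at h1
      exact h2 (by omega)

theorem row_hn {K : Type*} [Group K] (h : Spor.IsoHN K) : RowTwo K := by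
  obtain ⟨e⟩ := h
  exact RowTwo.congr e.symm rowTwo_HN

end Cfsg.Agent.H781.RowFi
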